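import Cfsg.Agent.Lib.Helper81.FCZ.Defs

/-!
# FCZ package [QUAT-V4]
-/

set_option autoImplicit false

namespace Cfsg.Agent.Lib.Helper35.FCZ

/-- The map `a i ↦ r (c i)`, `xa i ↦ sr (c i)`. -/
def quatToV4Fun (m : ℕ) (c : ZMod (2 * m) →+* ZMod 2) : QuaternionGroup m → DihedralGroup 2
  | QuaternionGroup.a i => DihedralGroup.r (c i)
  | QuaternionGroup.xa i => DihedralGroup.sr (c i)

theorem pkgQuatV4 : Cfsg.Agent.Lib.Helper81.FCZ.PkgQuatV4 := by
  intro n hn
  have hdvd : 2 ∣ 2 * 2 ^ n := dvd_mul_right 2 _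
  let c : ZMod (2 * 2 ^ n) →+* ZMod 2 := ZMod.castHom hdvd (ZMod 2)
  have hc : c ((2 ^ n : ℕ) : ZMod (2 * 2 ^ n)) = 0 := by
    rw [map_natCast, ZMod.natCast_eq_zero_iff]
    exact dvd_pow_self 2 (by omega)
  let f : QuaternionGroup (2 ^ n) →* DihedralGroup 2 :=
    { toFun := quatToV4Fun (2 ^ n) c
      map_one' := by
        rw [QuaternionGroup.one_def, DihedralGroup.one_def]
        simp only [quatToV4Fun, map_zero]
      map_mul' := by
        rintro (i | i) (j | j)
        · simp only [QuaternionGroup.a_mul_a, quatToV4Fun, DihedralGroup.r_mul_r, map_add]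
        · simp only [QuaternionGroup.a_mul_xa, quatToV4Fun, DihedralGroup.r_mul_sr, map_sub]
        · simp only [QuaternionGroup.xa_mul_a, quatToV4Fun, DihedralGroup.sr_mul_r, map_add]
        · simp only [QuaternionGroup.xa_mul_xa, quatToV4Fun, DihedralGroup.sr_mul_sr, map_sub,
            map_add, hc, zero_add] }
  have hfa : ∀ i, f (QuaternionGroup.a i) = DihedralGroup.r (c i) := fun i => rfl
  have hfxa : ∀ i, f (QuaternionGroup.xa i) = DihedralGroup.sr (c i) := fun i => rfl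
  have hcsurj : ∀ j : ZMod 2, ∃ i : ZMod (2 * 2 ^ n), c i = j := by
    intro j
    exact ⟨(j.val : ZMod (2 * 2 ^ n)), by rw [map_natCast, ZMod.natCast_zmod_val]⟩
  refine ⟨f, ?_, ?_⟩
  · rintro (j | j)
    · obtain ⟨i, hi⟩ := hcsurj j
      exact ⟨QuaternionGroup.a i, by rw [hfa, hi]⟩
    · obtain ⟨i, hi⟩ := hcsurj j
      exact ⟨QuaternionGroup.xa i, by rw [hfxa, hi]⟩
  · have hle : f.ker ≤ Subgroup.zpowers (QuaternionGroup.a 1 : QuaternionGroup (2 ^ n)) := by
      rintro (i | i) hx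
      · rw [Subgroup.mem_zpowers_iff]
        refine ⟨(i.val : ℤ), ?_⟩
        rw [zpow_natCast, QuaternionGroup.a_one_pow, ZMod.natCast_zmod_val]
      · exfalso
        rw [MonoidHom.mem_ker, hfxa, DihedralGroup.one_def] at hx
        cases hx
    have h1 : IsCyclic ↥(f.ker.subgroupOf
        (Subgroup.zpowers (QuaternionGroup.a 1 : QuaternionGroup (2 ^ n)))) := inferInstance
    exact isCyclic_of_surjective (Subgroup.subgroupOfEquivOfLe hle).toMonoidHom
      (Subgroup.subgroupOfEquivOfLe hle).surjective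

end Cfsg.Agent.Lib.Helper35.FCZ
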