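import Cfsg.Agent.Lib.Helper81.FCZ.Defs

/-!
# FCZ package [U-DD]
-/

set_option autoImplicit false

namespace Cfsg.Agent.Lib.Helper35.FCZ

open Cfsg.Agent.Lib.Helper81.FCZ

universe u

theorem pkgUDD : PkgUDD.{u} := by
  intro hGen G _ _ ⟨T, n, hT⟩ f₁ f₂ hf₁ hf₂
  have hexp : ∀ x : DihedralGroup 2, x * x = 1 := by decide
  have key : ∀ (f g : G →* DihedralGroup 2), Function.Surjective f → f.ker ≤ g.ker := by
    intro f g hf
    have hNn : (f.ker ⊓ g.ker).Normal := inferInstance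
    have hsq : ∀ x : G, x * x ∈ f.ker ⊓ g.ker := by
      intro x
      rw [Subgroup.mem_inf, MonoidHom.mem_ker, MonoidHom.mem_ker, map_mul, map_mul]
      exact ⟨hexp _, hexp _⟩
    have hidx : (f.ker ⊓ g.ker).index ≤ 4 := hGen T n hT (f.ker ⊓ g.ker) hNn hsq
    have hfidx : f.ker.index = 4 := by
      rw [Subgroup.index_ker, MonoidHom.range_eq_top.mpr hf, Subgroup.card_top,
        DihedralGroup.nat_card]
    have hrel : (f.ker ⊓ g.ker).relIndex f.ker * f.ker.index = (f.ker ⊓ g.ker).index :=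
      Subgroup.relIndex_mul_index inf_le_left
    have hpos : (f.ker ⊓ g.ker).relIndex f.ker ≠ 0 := by
      intro h0
      have hi0 : (f.ker ⊓ g.ker).index = 0 := by rw [← hrel, h0, zero_mul]
      exact Subgroup.index_ne_zero_of_finite hi0
    have hrel1 : (f.ker ⊓ g.ker).relIndex f.ker = 1 := by
      rw [hfidx] at hrel
      omega
    have hle : f.ker ≤ f.ker ⊓ g.ker := Subgroup.relIndex_eq_one.mp hrel1
    exact hle.trans inf_le_right
  exact le_antisymm (key f₁ f₂ hf₁) (key f₂ f₁ hf₂)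

end Cfsg.Agent.Lib.Helper35.FCZ
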