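import Cfsg.Agent.Lib.Helper81.FCZ.Defs

/-!
# FCZ package [U-GEN2]
-/

set_option autoImplicit false

namespace Cfsg.Agent.Lib.Helper35.FCZ

open Cfsg.Agent.Lib.Helper81.FCZ

universe u

theorem pkgUGen2 : PkgUGen2.{u} := by
  intro G _ _ T n ⟨e⟩ N hN hsq
  classical
  let π : G →* G ⧸ N := QuotientGroup.mk' N
  have hπsq : ∀ q : G ⧸ N, q * q = 1 := by
    intro q
    obtain ⟨g, rfl⟩ := QuotientGroup.mk'_surjective N q
    rw [← map_mul]
    exact (QuotientGroup.eq_one_iff _).mpr (hsq g)
  have hP : IsPGroup 2 (G ⧸ N) := by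
    intro q
    exact ⟨1, by rw [pow_one, pow_two]; exact hπsq q⟩
  have h1 : ((T : Subgroup G).map π).index ∣ (T : Subgroup G).index :=
    Subgroup.index_map_dvd _ (QuotientGroup.mk'_surjective N)
  have h2 : ¬ 2 ∣ (T : Subgroup G).index := T.not_dvd_index
  obtain ⟨k, hk⟩ := IsPGroup.iff_card.mp hP
  have h3 : ((T : Subgroup G).map π).index ∣ 2 ^ k := by
    rw [← hk]; exact Subgroup.index_dvd_card _
  have h4 : ((T : Subgroup G).map π).index = 1 := by
    obtain ⟨j, -, hj⟩ := (Nat.dvd_prime_pow Nat.prime_two).mp h3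
    rcases Nat.eq_zero_or_pos j with rfl | hjpos
    · simpa using hj
    · exfalso
      apply h2
      exact dvd_trans (by rw [hj]; exact dvd_pow_self 2 (by omega)) h1
  have htop : (T : Subgroup G).map π = ⊤ := Subgroup.index_eq_one.mp h4
  let φ : QuaternionGroup (2 ^ n) →* G ⧸ N :=
    π.comp ((T : Subgroup G).subtype.comp e.symm.toMonoidHom)
  set u := φ (QuaternionGroup.a 1) with hu
  set v := φ (QuaternionGroup.xa 0) with hv
  have hpow : ∀ m : ℕ, u ^ m = 1 ∨ u ^ m = u := by
    intro m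
    induction m with
    | zero => left; simp
    | succ m ih =>
      rcases ih with h | h
      · right; rw [pow_succ, h, one_mul]
      · left; rw [pow_succ, h]; exact hπsq u
  have hsub : ∀ q : G ⧸ N, q ∈ ({1, u, v, v * u} : Finset (G ⧸ N)) := by
    intro q
    have hq : q ∈ (T : Subgroup G).map π := by rw [htop]; trivial
    obtain ⟨t, ht, rfl⟩ := hq
    have hφ : π t = φ (e ⟨t, ht⟩) := by simp [φ]
    rw [hφ]
    rcases e ⟨t, ht⟩ with i | i
    · have hi : (QuaternionGroup.a i : QuaternionGroup (2 ^ n)) = QuaternionGroup.a 1 ^ i.val := by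
        rw [QuaternionGroup.a_one_pow, ZMod.natCast_zmod_val]
      rw [hi, map_pow]
      rcases hpow i.val with h | h <;> simp [← hu, h]
    · have hi : (QuaternionGroup.xa i : QuaternionGroup (2 ^ n))
          = QuaternionGroup.xa 0 * QuaternionGroup.a 1 ^ i.val := by
        rw [QuaternionGroup.a_one_pow, ZMod.natCast_zmod_val, QuaternionGroup.xa_mul_a, zero_add]
      rw [hi, map_mul, map_pow]
      rcases hpow i.val with h | h <;> simp [← hu, ← hv, h]
  have hfin : Fintype (G ⧸ N) := Fintype.ofFinite _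
  have hcard : Nat.card (G ⧸ N) ≤ 4 := by
    rw [Nat.card_eq_fintype_card]
    calc Fintype.card (G ⧸ N) = (Finset.univ : Finset (G ⧸ N)).card := rfl
      _ ≤ ({1, u, v, v * u} : Finset (G ⧸ N)).card := Finset.card_le_card (fun q _ => hsub q)
      _ ≤ 4 := Finset.card_le_four
  exact hcard

end Cfsg.Agent.Lib.Helper35.FCZ
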