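import Cfsg.Agent.Lib.Helper81.FCZ.Defs

/-!
# FCZ package [Z-OF-C2]
-/

set_option autoImplicit false

namespace Cfsg.Agent.Lib.Helper35.FCZ

open Cfsg.Agent.Lib.Helper81.FCZ

universe u

theorem pkgZofC2 : PkgZofC2.{u} := by
  intro G _ _ M hSyl hC2 p hp P
  by_cases h2 : p = 2
  · subst h2
    exact hC2 P
  · have hPp : IsPGroup p ((P : Subgroup M).map M.subtype) := P.isPGroup'.map M.subtype
    obtain ⟨S, hS⟩ := hPp.exists_le_sylow
    have hcyc : IsCyclic (S : Subgroup G) := by
      rcases hSyl p S with h | ⟨n, ⟨e⟩⟩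
      · exact h
      · exfalso
        have hcard : Nat.card (S : Subgroup G) = 4 * 2 ^ n := by
          rw [Nat.card_congr e.toEquiv, Nat.card_eq_fintype_card, QuaternionGroup.card]
        obtain ⟨k, hk⟩ := IsPGroup.iff_card.mp S.isPGroup'
        rw [hcard] at hk
        have hk0 : k ≠ 0 := by
          rintro rfl
          have : 0 < 2 ^ n := by positivity
          simp at hk
        have hdvd : p ∣ 4 * 2 ^ n := by
          rw [hk]; exact dvd_pow_self p hk0
        have hp2 : p ∣ 2 := by
          have h4 : (4 * 2 ^ n) = 2 ^ (n + 2) := by ring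
          rw [h4] at hdvd
          exact hp.out.dvd_of_dvd_pow hdvd
        exact h2 ((Nat.prime_dvd_prime_iff_eq hp.out Nat.prime_two).mp hp2)
    have h1 : IsCyclic ↥(((P : Subgroup M).map M.subtype).subgroupOf (S : Subgroup G)) :=
      inferInstance
    have h2' : IsCyclic ↥((P : Subgroup M).map M.subtype) :=
      isCyclic_of_surjective (Subgroup.subgroupOfEquivOfLe hS).toMonoidHom
        (Subgroup.subgroupOfEquivOfLe hS).surjective
    exact isCyclic_of_surjective
      ((P : Subgroup M).equivMapOfInjective M.subtype M.subtype_injective).symm.toMonoidHom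
      ((P : Subgroup M).equivMapOfInjective M.subtype M.subtype_injective).symm.surjective

end Cfsg.Agent.Lib.Helper35.FCZ
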